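import Mathlib
import Cfsg.Agent.Lib.Transfer.Control
import Cfsg.Agent.Lib.Core.CoprimeAbelian

/-!
Normal `p`-complements from an abelian Sylow `p`-subgroup of small rank (helper78).
-/

set_option autoImplicit false

namespace H78.AbSyl

open Subgroup

theorem card_dvd_pow_rank {A : Type*} [CommGroup A] [Finite A] (p : ℕ) (E : Subgroup A)
    (hE : ∀ x ∈ E, x ^ p = 1) : Nat.card E ∣ p ^ Group.rank A := by
  have h1 : E ≤ (powMonoidHom p : A →* A).ker := hE
  refine (card_dvd_of_le h1).trans ?_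
  have h2 : Nat.card (powMonoidHom p : A →* A).ker = (powMonoidHom p : A →* A).range.index := by
    have h3 := (powMonoidHom p : A →* A).ker.card_mul_index
    have h4 := (powMonoidHom p : A →* A).range.card_mul_index
    rw [index_ker] at h3
    have h5 : 0 < Nat.card (powMonoidHom p : A →* A).range := Nat.card_pos
    refine Nat.eq_of_mul_eq_mul_right h5 ?_
    rw [mul_comm (index _), h4]
    exact h3
  rw [h2]
  refine (card_dvd_exponent_pow_rank' (A ⧸ (powMonoidHom p : A →* A).range) (n := p)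
    fun g => ?_).trans (pow_dvd_pow _ (Group.rank_le_of_surjective _
      (QuotientGroup.mk'_surjective (powMonoidHom p : A →* A).range)))
  obtain ⟨g, rfl⟩ := QuotientGroup.mk_surjective g
  exact (QuotientGroup.eq_one_iff _).mpr ⟨g, rfl⟩

variable {G : Type*} [Group G] [Finite G]

theorem card_dvd_pow_rank' {P E : Subgroup G} (hP : IsMulCommutative P) (p : ℕ) (hEP : E ≤ P)
    (hE : ∀ x ∈ E, x ^ p = 1) : Nat.card E ∣ p ^ Group.rank P := by
  letI : CommGroup P := { (inferInstance : Group P) with mul_comm := hP.is_comm.comm }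
  rw [← H2.card_subgroupOf_of_le hEP]
  exact card_dvd_pow_rank p (E.subgroupOf P) fun x hx => Subtype.ext (hE x hx)

theorem npc {p d : ℕ} [hp : Fact p.Prime] (P : Sylow p G) (hab : IsMulCommutative P)
    (hd : ∀ E : Subgroup G, E ≤ P → (∀ x ∈ E, x ^ p = 1) → Nat.card E ∣ p ^ d)
    (h : ∀ q : ℕ, q.Prime → q ≠ p → q ∣ Nat.card G → ∀ i, 1 ≤ i → i ≤ d → ¬ q ∣ p ^ i - 1) :
    Cfsg.HasNormalPComplement p G := by
  refine H4.hasNormalPComplement_of_forall_prime_pow P fun Q hQ q hq hqp hqd g hg ⟨k, hk⟩ => ?_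
  haveI := Fact.mk hq
  have hc : ∀ x ∈ Q, ∀ y ∈ Q, Commute x y := fun x hx y hy =>
    congrArg Subtype.val (hab.is_comm.comm ⟨x, hQ hx⟩ ⟨y, hQ hy⟩)
  let E : Subgroup G :=
    { carrier := {x | x ∈ Q ∧ x ^ p = 1}
      one_mem' := ⟨one_mem _, one_pow _⟩
      mul_mem' := fun {x y} hx hy => ⟨mul_mem hx.1 hy.1, by
        rw [(hc x hx.1 y hy.1).mul_pow, hx.2, hy.2, mul_one]⟩
      inv_mem' := fun {x} hx => ⟨inv_mem hx.1, by rw [inv_pow, hx.2, inv_one]⟩ }
  have hgE : g ∈ normalizer (E : Set G) := by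
    refine mem_normalizer_iff.mpr fun x => and_congr (mem_normalizer_iff.mp hg x) ?_
    rw [conj_pow, conj_eq_one_iff]
  obtain ⟨m, hm, hm'⟩ := (Nat.dvd_prime_pow hp.out).mp (hd E (fun x hx => hQ hx.1) fun x hx => hx.2)
  have hgC : g ∈ centralizer (E : Set G) := by
    by_contra hn
    obtain ⟨i, h1, h2, h3⟩ := H4.exists_dvd_pow_sub_one hqp hm' hgE hk hn
    exact h q hq hqp hqd i h1 (h2.trans hm) h3
  have hQp : IsPGroup p Q := P.isPGroup'.to_le hQ
  refine zpowers_le.mp (H2.le_centralizer_of_prime_order (A := zpowers g)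
    ⟨⟨fun x y => Subtype.ext (hc x x.2 y y.2)⟩⟩ (zpowers_le.mpr hg) ?_ fun v hv ho => ?_)
  · obtain ⟨n, hn⟩ := hQp.exists_card_eq
    rw [hn, Nat.card_zpowers]
    exact (((Nat.coprime_primes hq hp.out).mpr hqp).pow k n).coprime_dvd_left
      (orderOf_dvd_of_pow_eq_one hk)
  · obtain ⟨n, hn⟩ := IsPGroup.iff_orderOf.mp hQp ⟨v, hv⟩
    rw [← orderOf_coe] at hn
    have h1 : orderOf v = p :=
      (Nat.prime_dvd_prime_iff_eq ho hp.out).mp (ho.dvd_of_dvd_pow hn.dvd)
    have h2 : zpowers g ≤ centralizer {v} := zpowers_le.mpr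
      (mem_centralizer_singleton_iff.mpr (hgC v ⟨hv, h1 ▸ pow_orderOf_eq_one v⟩).symm)
    exact fun y hy => mem_centralizer_singleton_iff.mp (h2 hy)

end H78.AbSyl
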