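import Mathlib

/-! Commutator pairings into a central cyclic subgroup. -/

set_option autoImplicit false

open scoped commutatorElement

namespace H76

theorem exists_injective_hom_complex (D : Type*) [Group D] [Finite D] [IsCyclic D] :
    ∃ ι : D →* ℂ, Function.Injective ι := by
  have hn : Nat.card D ≠ 0 := Nat.card_pos.ne'
  have : NeZero (Nat.card D) := ⟨hn⟩
  have e : D ≃* rootsOfUnity (Nat.card D) ℂ :=
    mulEquivOfCyclicCardEq (by rw [Complex.card_rootsOfUnity])
  refine ⟨(Units.coeHom ℂ).comp ((rootsOfUnity (Nat.card D) ℂ).subtype.comp e.toMonoidHom), ?_⟩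
  exact Units.val_injective.comp (Subtype.val_injective.comp e.injective)

/-- If `[A,B]` is cyclic and centralized by `A` and `B`, then `|A : C_A(B)| ≤ |B : C_B(A)|`. -/
theorem relIndex_centralizer_le_of_commutator_cyclic {G : Type*} [Group G] [Finite G]
    (A B : Subgroup G) (hcyc : IsCyclic ↥⁅A, B⁆)
    (hB : B ≤ Subgroup.centralizer ((⁅A, B⁆ : Subgroup G) : Set G)) :
    (A ⊓ Subgroup.centralizer (B : Set G)).relIndex A ≤
      (B ⊓ Subgroup.centralizer (A : Set G)).relIndex B := by
  classical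
  obtain ⟨ι, hι⟩ := exists_injective_hom_complex ↥⁅A, B⁆
  let f : A → (B →* ℂ) := fun a =>
    { toFun := fun b => ι ⟨⁅(a : G), (b : G)⁆, Subgroup.commutator_mem_commutator a.2 b.2⟩
      map_one' := by
        rw [← map_one ι]; congr 1; apply Subtype.ext; simp
      map_mul' := fun b c => by
        rw [← map_mul ι]; congr 1; apply Subtype.ext
        have h1 := hB b.2 _ (Subgroup.commutator_mem_commutator a.2 c.2)
        simp only [Subgroup.coe_mul]
        rw [commutatorElement_mul_right_eq_mul_conj, mul_assoc _ (b : G), ← h1]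
        simp only [mul_assoc, mul_inv_cancel, mul_one] }
  set KA := (A ⊓ Subgroup.centralizer (B : Set G)).subgroupOf A
  set KB := (B ⊓ Subgroup.centralizer (A : Set G)).subgroupOf B
  have hinj : Function.Injective (fun q : A ⧸ KA => f q.out) := by
    intro q q' h
    rw [← q.out_eq', ← q'.out_eq', QuotientGroup.eq]
    refine ⟨((q.out)⁻¹ * q'.out).2, ?_⟩
    intro b hb
    have h1 := hι (DFunLike.congr_fun h ⟨b, hb⟩)
    have h2 : ⁅(q.out : G), b⁆ = ⁅(q'.out : G), b⁆ := congrArg Subtype.val h1
    simp only [commutatorElement_def, mul_left_inj] at h2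
    simp only [Subgroup.coe_subtype, Subgroup.coe_mul, Subgroup.coe_inv]
    calc b * ((q.out : G)⁻¹ * q'.out) = (q.out : G)⁻¹ * (q.out * b * (q.out : G)⁻¹) * q'.out := by
          group
      _ = (q.out : G)⁻¹ * (q'.out * b * (q'.out : G)⁻¹) * q'.out := by rw [h2]
      _ = _ := by group
  have hli : LinearIndependent ℂ (fun q : A ⧸ KA => ((f q.out : B →* ℂ) : B → ℂ)) :=
    (linearIndependent_monoidHom B ℂ).comp _ hinj
  let g : A ⧸ KA → (B ⧸ KB → ℂ) := fun q r => f q.out r.out
  have hg : (fun q : A ⧸ KA => ((f q.out : B →* ℂ) : B → ℂ)) =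
      (LinearMap.funLeft ℂ ℂ (QuotientGroup.mk : B → B ⧸ KB)) ∘ g := by
    funext q b
    obtain ⟨k, hk⟩ := QuotientGroup.mk_out_eq_mul KB b
    simp only [Function.comp, LinearMap.funLeft_apply, g, hk, map_mul]
    have : f q.out k = 1 := by
      rw [← map_one ι]
      change ι _ = _
      congr 1
      apply Subtype.ext
      have := k.2.2 _ q.out.2
      exact commutatorElement_eq_one_iff_mul_comm.mpr this
    rw [this, mul_one]
  rw [hg] at hli
  have hli2 := LinearIndependent.of_comp _ hli
  have := Fintype.ofFinite (A ⧸ KA)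
  have := Fintype.ofFinite (B ⧸ KB)
  have h3 := hli2.fintype_card_le_finrank
  rw [Module.finrank_fintype_fun_eq_card] at h3
  change Nat.card (A ⧸ KA) ≤ Nat.card (B ⧸ KB)
  simpa [Nat.card_eq_fintype_card] using h3

/-- If `[A,B]` is cyclic and centralized by `A` and `B`, then `|A : C_A(B)| = |B : C_B(A)|`. -/
theorem relIndex_centralizer_eq_of_commutator_cyclic {G : Type*} [Group G] [Finite G]
    (A B : Subgroup G) (hcyc : IsCyclic ↥⁅A, B⁆)
    (hA : A ≤ Subgroup.centralizer ((⁅A, B⁆ : Subgroup G) : Set G))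
    (hB : B ≤ Subgroup.centralizer ((⁅A, B⁆ : Subgroup G) : Set G)) :
    (A ⊓ Subgroup.centralizer (B : Set G)).relIndex A =
      (B ⊓ Subgroup.centralizer (A : Set G)).relIndex B := by
  apply le_antisymm (relIndex_centralizer_le_of_commutator_cyclic A B hcyc hB)
  rw [Subgroup.commutator_comm] at hcyc hA
  exact relIndex_centralizer_le_of_commutator_cyclic B A hcyc hA

/-- A `p`-subgroup normalizing a subgroup of order at most `p` that is a `p`-group centralizes it. -/
theorem le_centralizer_of_card_le_prime {G : Type*} [Group G] [Finite G] {p : ℕ} [hp : Fact p.Prime]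
    (P D : Subgroup G) (hP : IsPGroup p P) (hD : Nat.card D ≤ p)
    (hPD : P ≤ Subgroup.normalizer (D : Set G)) : P ≤ Subgroup.centralizer (D : Set G) := by
  classical
  intro x hx d hd
  by_cases hd1 : d = 1
  · subst hd1; simp
  let φ : P →* MulAut D := D.normalizerMonoidHom.comp (Subgroup.inclusion hPD)
  let _ : MulAction P D := MulAction.compHom D φ
  obtain ⟨n, hn⟩ := hP.card_orbit (⟨d, hd⟩ : D)
  have hlt : Nat.card (MulAction.orbit P (⟨d, hd⟩ : D)) < Nat.card D := by
    have hss : MulAction.orbit P (⟨d, hd⟩ : D) ⊂ Set.univ := by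
      refine Set.ssubset_univ_iff.mpr fun h => ?_
      have h1 : (1 : D) ∈ MulAction.orbit P (⟨d, hd⟩ : D) := h ▸ Set.mem_univ _
      obtain ⟨y, hy⟩ := h1
      have : φ y ⟨d, hd⟩ = 1 := hy
      rw [map_eq_one_iff _ (φ y).injective] at this
      exact hd1 (congrArg Subtype.val this)
    have := Set.ncard_lt_ncard hss
    rwa [Set.ncard_univ] at this
  have hn0 : n = 0 := by
    by_contra h0
    have : p ≤ p ^ n := Nat.le_self_pow h0 p
    omega
  rw [hn0, pow_zero] at hn
  have hsub := (Nat.card_eq_one_iff_unique.mp hn).1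
  have h2 : (⟨_, MulAction.mem_orbit (⟨d, hd⟩ : D) (⟨x, hx⟩ : P)⟩ :
      MulAction.orbit P (⟨d, hd⟩ : D)) = ⟨_, MulAction.mem_orbit_self _⟩ := Subsingleton.elim _ _
  have h3 : x * d * x⁻¹ = d := congrArg (fun z : D => (z : G)) (congrArg Subtype.val h2)
  exact (mul_inv_eq_iff_eq_mul.mp h3).symm

end H76
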