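import Mathlib
import Cfsg.Agent.Base
import Cfsg.Agent.Lib.Core.Permutable

/-! Groups of exponent four with central involutions in which all squaring fibres have one
size. -/

set_option autoImplicit false

namespace H76

open Subgroup
open scoped commutatorElement

theorem two_pow_add_eq {e a n : ℕ} (hn : 0 < n) (h : 2 ^ e + 2 ^ a = 2 ^ (2 * n) + 2 ^ (a + n)) :
    a = 2 * n ∧ e = 3 * n := by
  have h1 : 2 ^ (a + 1) ≤ 2 ^ (a + n) := Nat.pow_le_pow_right two_pos (by omega)
  have h2 : a < e := (Nat.pow_lt_pow_iff_right one_lt_two).1 (by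
    have := Nat.one_le_two_pow (n := 2 * n)
    omega)
  have h3 : ∀ k, ¬ 2 ^ (k + 1) ∣ 2 ^ k := fun k hk => by
    have := (Nat.pow_dvd_pow_iff_le_right one_lt_two).1 hk
    omega
  have ha : a = 2 * n := by
    rcases lt_trichotomy a (2 * n) with h4 | h4 | h4
    · refine absurd ((Nat.dvd_add_right (pow_dvd_pow 2 (show a + 1 ≤ e by omega))).1 ?_) (h3 a)
      rw [h]
      exact dvd_add (pow_dvd_pow 2 h4) (pow_dvd_pow 2 (by omega))
    · exact h4
    · refine absurd ((Nat.dvd_add_left (pow_dvd_pow 2 (show 2 * n + 1 ≤ a + n by omega))).1 ?_)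
        (h3 (2 * n))
      rw [← h]
      exact dvd_add (pow_dvd_pow 2 (by omega)) (pow_dvd_pow 2 h4)
  subst ha
  refine ⟨rfl, Nat.pow_right_injective le_rfl ?_⟩
  simp only
  rw [show 3 * n = 2 * n + n by ring]
  omega

variable {E : Type*} [Group E] {V : Subgroup E}

theorem mul_sq_eq (hc : V ≤ center E) (hsq : ∀ x : E, x ^ 2 ∈ V) (x y : E) :
    (x * y) ^ 2 = ⁅x, y⁆ * y ^ 2 * x ^ 2 := by
  have := mem_center_iff.1 (hc (hsq x)) y
  calc (x * y) ^ 2 = x * y * x⁻¹ * (x ^ 2 * y) := by simp only [sq]; group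
    _ = _ := by rw [← this, commutatorElement_def]; simp only [sq]; group

/-- The commutator map into the central subgroup. -/
def commHom (hc : V ≤ center E) (hsq : ∀ x : E, x ^ 2 ∈ V) (x : E) : E →* V :=
  have h : ∀ y, ⁅x, y⁆ ∈ V := fun y => by
    have := mul_mem (mul_mem (hsq (x * y)) (inv_mem (hsq x))) (inv_mem (hsq y))
    rwa [mul_sq_eq hc hsq, mul_inv_cancel_right, mul_inv_cancel_right] at this
  MonoidHom.mk' (fun y => ⟨⁅x, y⁆, h y⟩) fun y z => Subtype.ext (by
    simp only [coe_mul]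
    rw [commutatorElement_mul_right_eq_mul_conj, mul_assoc _ y, mem_center_iff.1 (hc (h z)) y,
      ← mul_assoc, mul_inv_cancel_right])

theorem quad_count [Finite E] (hV : ∀ x, x ∈ V ↔ x ^ 2 = 1) (hc : V ≤ center E)
    (hsq : ∀ x : E, x ^ 2 ∈ V) {N : ℕ} (hfib : ∀ v ∈ V, v ≠ 1 → Nat.card {x : E // x ^ 2 = v} = N)
    (hN : Nat.card V < N) (χ : V →* ℂˣ) (hχ : χ ≠ 1) :
    N = Nat.card V * (Nat.card V + 1) ∧ Nat.card E = Nat.card V ^ 3 ∧
      ∀ w, χ.comp (commHom hc hsq w) = 1 → w ∈ V := by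
  classical
  let _ := Fintype.ofFinite E
  let q : E → V := fun x => ⟨x ^ 2, hsq x⟩
  have hsum : ∀ f : V → ℂ, ∑ x, f (q x) + N * f 1 = Nat.card V * f 1 + N * ∑ v, f v := by
    intro f
    have h1 : ∀ v : V, ∑ x with q x = v, f (q x) = Nat.card {x : E // x ^ 2 = v} * f v := by
      intro v
      rw [Finset.sum_congr rfl fun x hx => congrArg f (Finset.mem_filter.1 hx).2, Finset.sum_const,
        nsmul_eq_mul, Nat.card_eq_fintype_card, Fintype.card_subtype]
      simp only [q, Subtype.ext_iff]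
    rw [← Finset.sum_fiberwise Finset.univ q, ← Finset.add_sum_erase _ _ (Finset.mem_univ 1),
      ← Finset.add_sum_erase _ f (Finset.mem_univ 1), h1, Finset.sum_congr rfl fun v hv => by
        rw [h1, hfib v v.2 fun h => Finset.ne_of_mem_erase hv (Subtype.ext h)], ← Finset.mul_sum,
      OneMemClass.coe_one, Nat.card_congr (Equiv.subtypeEquivRight fun x => (hV x).symm)]
    ring
  let c := commHom hc hsq
  have hq : ∀ x y, χ (q (x * y)) = χ (c x y) * χ (q y) * χ (q x) := fun x y => by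
    rw [← map_mul, ← map_mul]
    exact congrArg χ (Subtype.ext (mul_sq_eq hc hsq x y))
  let R : Subgroup E := ⨅ x, (χ.comp (c x)).ker
  have hR : ∀ w, w ∈ R ↔ χ.comp (c w) = 1 := fun w => by
    simp only [R, mem_iInf, MonoidHom.mem_ker, MonoidHom.ext_iff, MonoidHom.comp_apply,
      MonoidHom.one_apply]
    refine forall_congr' fun x => ?_
    rw [show c x w = (c w x)⁻¹ from Subtype.ext (commutatorElement_inv w x).symm, map_inv,
      inv_eq_one]
  let t : R →* ℂˣ := MonoidHom.mk' (fun w => χ (q w)) fun w z => by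
    rw [coe_mul, hq, show χ (c w z) = 1 from DFunLike.congr_fun ((hR w).1 w.2) (z : E), one_mul, mul_comm]
  have h1 := hsum fun v => χ v
  rw [show ∑ v, (χ v : ℂ) = 0 from sum_hom_units_eq_zero ((Units.coeHom ℂ).comp χ) fun h =>
    hχ (MonoidHom.ext fun v => Units.ext (DFunLike.congr_fun h v))] at h1
  simp only [map_one, Units.val_one, mul_one, mul_zero, add_zero] at h1
  have h2 : (∑ x, (χ (q x) : ℂ)) ^ 2 = Nat.card E * ∑ w : R, (t w : ℂ) := by
    calc (∑ x, (χ (q x) : ℂ)) ^ 2 = ∑ x, ∑ w, (χ (q x) : ℂ) * χ (q (w * x)) := by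
          rw [sq, Finset.sum_mul]
          refine Finset.sum_congr rfl fun x _ => ?_
          rw [Finset.mul_sum]
          exact (Fintype.sum_equiv (Equiv.mulRight x) _ _ fun w => rfl).symm
      _ = ∑ w, (χ (q w) : ℂ) * ∑ x, (χ (c w x) : ℂ) := by
          rw [Finset.sum_comm]
          refine Finset.sum_congr rfl fun w _ => ?_
          rw [Finset.mul_sum]
          refine Finset.sum_congr rfl fun x _ => ?_
          have : χ (q x) * χ (q x) = 1 := by
            rw [← map_mul, show q x * q x = 1 from Subtype.ext ((sq _).symm.trans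
              ((hV _).1 (hsq x))), map_one]
          rw [← Units.val_mul, ← Units.val_mul, hq, mul_comm (χ (c w x)), ← mul_assoc,
            ← mul_assoc, this, one_mul, mul_comm]
      _ = ∑ w, if w ∈ R then (Nat.card E : ℂ) * χ (q w) else 0 := by
          refine Finset.sum_congr rfl fun w _ => ?_
          split_ifs with h
          · rw [mul_comm, Finset.sum_congr rfl fun x _ => by
              rw [show χ (c w x) = 1 from DFunLike.congr_fun ((hR w).1 h) x]]
            simp
          · rw [show ∑ x, (χ (c w x) : ℂ) = 0 from sum_hom_units_eq_zero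
              ((Units.coeHom ℂ).comp (χ.comp (c w))) fun h' => h ((hR w).2
                (MonoidHom.ext fun v => Units.ext (DFunLike.congr_fun h' v))), mul_zero]
      _ = _ := by
          rw [← Finset.sum_filter, Finset.mul_sum,
            Finset.sum_subtype (p := (· ∈ R)) _ (by simp)]
          rfl
  obtain ⟨d, rfl⟩ : ∃ d, N = Nat.card V + (d + 1) := ⟨N - Nat.card V - 1, by omega⟩
  have h3 : ∑ x, (χ (q x) : ℂ) = -(d + 1 : ℕ) := by
    push_cast at h1 ⊢
    linear_combination h1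
  have h4 : (d + 1) ^ 2 = Nat.card E * Nat.card R := by
    rw [h3, neg_sq] at h2
    by_cases ht : t = 1
    · simp only [ht, MonoidHom.one_apply, Units.val_one, Finset.sum_const, Finset.card_univ,
        nsmul_eq_mul, mul_one, ← Nat.card_eq_fintype_card] at h2
      exact_mod_cast h2
    · rw [show ∑ w : R, (t w : ℂ) = 0 from sum_hom_units_eq_zero ((Units.coeHom ℂ).comp t) fun h =>
        ht (MonoidHom.ext fun v => Units.ext (DFunLike.congr_fun h v)), mul_zero] at h2
      exact absurd (by exact_mod_cast h2 : (d + 1) ^ 2 = 0) (by positivity)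
  have h5 : Nat.card E + (Nat.card V + (d + 1)) =
      Nat.card V + (Nat.card V + (d + 1)) * Nat.card V := by
    have := hsum fun _ => 1
    simp only [Finset.sum_const, Finset.card_univ, nsmul_eq_mul, mul_one,
      ← Nat.card_eq_fintype_card] at this
    exact_mod_cast this
  have hE : IsPGroup 2 E := fun x => ⟨2, by rw [sq, pow_mul, (hV _).1 (hsq x)]⟩
  obtain ⟨e, he⟩ := IsPGroup.iff_card.1 hE
  obtain ⟨n, hn⟩ := IsPGroup.iff_card.1 (hE.to_subgroup V)
  obtain ⟨r, hr⟩ := IsPGroup.iff_card.1 (hE.to_subgroup R)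
  obtain ⟨a, -, ha⟩ := (Nat.dvd_prime_pow Nat.prime_two (i := d + 1) (m := e + r)).1 (by
    rw [pow_add, ← he, ← hr, ← h4]
    exact dvd_pow_self _ two_ne_zero)
  have hn0 : 0 < n := Nat.pos_of_ne_zero fun h => hχ (by
    rw [h, pow_zero, Nat.card_eq_one_iff_unique] at hn
    have := hn.1
    exact MonoidHom.ext fun v => by rw [Subsingleton.elim v 1, map_one, map_one])
  rw [he, hn, ha] at h5
  obtain ⟨rfl, rfl⟩ := two_pow_add_eq (e := e) (a := a) hn0 (by
    rw [pow_add, two_mul, pow_add]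
    linarith)
  refine ⟨by rw [ha, hn]; ring, by rw [he, hn]; ring, fun w hw => ?_⟩
  have h6 : V ≤ R := fun v hv => (hR v).2 (MonoidHom.ext fun x => by
    rw [MonoidHom.comp_apply, show c v x = 1 from Subtype.ext
      (commutatorElement_eq_one_iff_mul_comm.2 (mem_center_iff.1 (hc hv) x).symm), map_one,
      MonoidHom.one_apply])
  rw [eq_of_le_of_card_ge h6 (by
    rw [ha, he, hr, ← pow_mul, ← pow_add, Nat.pow_right_inj one_lt_two] at h4
    rw [hr, hn, show r = n by omega])]
  exact (hR w).2 hw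

open scoped IsMulCommutative in
theorem quad_count' [Finite E] (hV : ∀ x, x ∈ V ↔ x ^ 2 = 1) (hc : V ≤ center E)
    (hsq : ∀ x : E, x ^ 2 ∈ V) {N : ℕ} (hfib : ∀ v ∈ V, v ≠ 1 → Nat.card {x : E // x ^ 2 = v} = N)
    (hxy : ∃ x y : E, x ^ 2 = y ^ 2 ∧ x⁻¹ * y ∉ V) :
    N = Nat.card V * (Nat.card V + 1) ∧ ∀ C D : Subgroup E, (∀ x ∈ C, ∀ y ∈ D, x * y = y * x) →
      C ⊓ D = V → C ⊔ D = ⊤ → C = V ∨ D = V := by
  have : IsMulCommutative V := ⟨⟨fun a b => Subtype.ext (mem_center_iff.1 (hc b.2) a)⟩⟩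
  obtain ⟨x, y, hxy, hxy'⟩ := hxy
  have hx : x ^ 2 ≠ 1 := fun h =>
    hxy' (mul_mem (inv_mem ((hV x).2 h)) ((hV y).2 (hxy ▸ h)))
  have hN : Nat.card V < N := by
    let _ := Fintype.ofFinite V
    let _ := Fintype.ofFinite {z : E // z ^ 2 = x ^ 2}
    rw [← hfib _ (hsq x) hx, Nat.card_eq_fintype_card, Nat.card_eq_fintype_card]
    refine Fintype.card_lt_of_injective_of_notMem (fun v => ⟨x * v, by
      rw [Commute.mul_pow (mem_center_iff.1 (hc v.2) x), (hV _).1 v.2, mul_one]⟩)
      (fun v w h => Subtype.ext (mul_left_cancel (congrArg Subtype.val h))) (b := ⟨y, hxy.symm⟩) ?_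
    rintro ⟨v, hv⟩
    exact hxy' (by rw [← show x * v = y from congrArg Subtype.val hv, inv_mul_cancel_left]; exact v.2)
  obtain ⟨χ, hχ⟩ := CommGroup.exists_apply_ne_one_of_hasEnoughRootsOfUnity V ℂ
    (a := ⟨_, hsq x⟩) fun h => hx (congrArg Subtype.val h)
  obtain ⟨h1, h2, -⟩ := quad_count hV hc hsq hfib hN χ fun h => hχ (by rw [h]; rfl)
  refine ⟨h1, fun C D hCD h3 h4 => ?_⟩
  have key : ∀ C D : Subgroup E, (∀ x ∈ C, ∀ y ∈ D, x * y = y * x) → C ⊓ D = V → C ≠ V →
      Nat.card D < Nat.card V ^ 2 := by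
    intro C D hCD h3 hC
    obtain ⟨w, hw, hwV⟩ := SetLike.exists_of_lt (lt_of_le_of_ne (h3.ge.trans inf_le_left) hC.symm)
    have h5 : (commHom hc hsq w).range = ⊤ := eq_top_iff.2 fun u _ =>
      (CommGroup.forall_monoidHom_apply_eq_one_iff ℂ _ u).1 fun φ hφ => by_contra fun h =>
        hwV ((quad_count hV hc hsq hfib hN φ fun h' => h (by rw [h']; rfl)).2.2 w
          (MonoidHom.ext fun z => hφ _ ⟨z, rfl⟩))
    have h6 := (commHom hc hsq w).ker.index_mul_card
    rw [index_ker, h5, card_top, h2, pow_succ', Nat.mul_right_inj Nat.card_pos.ne'] at h6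
    rw [← h6]
    refine H1.card_lt_of_lt (lt_of_le_of_ne (fun z hz => Subtype.ext
      (commutatorElement_eq_one_iff_mul_comm.2 (hCD w hw z hz))) fun h => hwV ?_)
    rw [← h3]
    exact ⟨hw, h.ge (Subtype.ext (commutatorElement_self w))⟩
  by_contra! h
  have h5 := H1.card_sup_mul_card_inf_of_comm (A := C) (B := D) (by
    ext z
    constructor
    · rintro ⟨a, ha, b, hb, rfl⟩
      exact ⟨b, hb, a, ha, (hCD a ha b hb).symm⟩
    · rintro ⟨b, hb, a, ha, rfl⟩
      exact ⟨a, ha, b, hb, hCD a ha b hb⟩)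
  rw [h3, h4, card_top, h2] at h5
  have h6 := Nat.mul_lt_mul'' (key D C (fun a ha b hb => (hCD b hb a ha).symm)
    (inf_comm C D ▸ h3) h.2) (key C D hCD h3 h.1)
  rw [← h5] at h6
  exact h6.ne (by ring)

end H76
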