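import Cfsg.Agent.Base
import Cfsg.Agent.Lib.PGroup.Frattini
import Cfsg.Agent.Lib.Core.GrpBasic

/-!
# A Chevalley–Warning bound for the squaring map of a `2`-group of class two
-/

set_option autoImplicit false

namespace H77

open Subgroup Cfsg
open scoped Pointwise commutatorElement

variable {G : Type*} [Group G]

/-- All `k`-fold differences of `f` along `H` vanish on `H`. -/
def DegLt (H : Subgroup G) : ℕ → (G → ZMod 2) → Prop
  | 0, f => ∀ x ∈ H, f x = 0
  | k + 1, f => ∀ a ∈ H, DegLt H k fun x => f (x * a) + f x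

namespace DegLt

variable {H : Subgroup G}

theorem congr : ∀ {k : ℕ} {f g : G → ZMod 2}, DegLt H k f → (∀ x ∈ H, f x = g x) → DegLt H k g
  | 0, _, _, h, e => fun x hx => e x hx ▸ h x hx
  | _ + 1, _, _, h, e => fun a ha => (h a ha).congr fun x hx => by
      rw [e x hx, e _ (H.mul_mem hx ha)]

theorem of_zero : ∀ (k : ℕ) {f : G → ZMod 2}, (∀ x ∈ H, f x = 0) → DegLt H k f
  | 0, _, h => h
  | k + 1, _, h => fun a ha => of_zero k fun x hx => by
      rw [h x hx, h _ (H.mul_mem hx ha), add_zero]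

theorem add : ∀ {k : ℕ} {f g : G → ZMod 2}, DegLt H k f → DegLt H k g →
    DegLt H k fun x => f x + g x
  | 0, _, _, h, e => fun x hx => by simp only [h x hx, e x hx, add_zero]
  | _ + 1, _, _, h, e => fun a ha => ((h a ha).add (e a ha)).congr fun x _ => by ring

theorem shift : ∀ {k : ℕ} {f : G → ZMod 2}, DegLt H k f → ∀ {a : G}, a ∈ H →
    DegLt H k fun x => f (x * a)
  | 0, _, h, _, ha => fun _ hx => h _ (H.mul_mem hx ha)
  | _ + 1, _, h, a, ha => fun b hb =>
      ((h (a⁻¹ * b * a) (H.mul_mem (H.mul_mem (H.inv_mem ha) hb) ha)).shift ha).congr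
        fun x _ => by simp only [mul_assoc, mul_inv_cancel_left]

theorem succ : ∀ {k : ℕ} {f : G → ZMod 2}, DegLt H k f → DegLt H (k + 1) f
  | 0, _, h => of_zero _ h
  | _ + 1, _, h => fun a ha => (h a ha).succ

theorem mul : ∀ (n : ℕ) {a b : ℕ} {f g : G → ZMod 2}, DegLt H a f → DegLt H b g → a + b ≤ n + 1 →
    DegLt H n fun x => f x * g x
  | n, 0, _, _, _, h, _, _ => of_zero n fun x hx => by rw [h x hx, zero_mul]
  | n, _, 0, _, _, _, e, _ => of_zero n fun x hx => by rw [e x hx, mul_zero]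
  | 0, _ + 1, _ + 1, _, _, _, _, hn => by omega
  | n + 1, a + 1, b + 1, f, g, h, e, hn => fun c hc =>
      ((mul n (h c hc) (e.shift hc) (by omega)).add (mul n h (e c hc) (by omega))).congr
        fun x _ => by
          have : f x * g (x * c) + f x * g (x * c) = 0 := CharTwo.add_self_eq_zero _
          linear_combination this

end DegLt

open Classical in
/-- The indicator function of a subgroup. -/
noncomputable def indF (D : Subgroup G) (x : G) : ZMod 2 := if x ∈ D then 1 else 0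

theorem relIndex_lt_of_degLt [Finite G] {H : Subgroup G} (hH : IsPGroup 2 H) :
    ∀ (k : ℕ) {D : Subgroup G}, D ≤ H → DegLt H k (indF D) → D.relIndex H < 2 ^ k
  | 0, D, _, h => by simpa [indF] using h 1 H.one_mem
  | k + 1, D, hD, h => by
    rcases hD.eq_or_lt with rfl | hlt
    · rw [relIndex_self]; exact Nat.one_lt_two_pow (by omega)
    obtain ⟨a, ha, haD, ha2, han⟩ := H5.exists_mem_normalizer_of_lt hH hlt
    have h1 : D ⊔ zpowers a ≤ H := sup_le hD (zpowers_le.mpr ha)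
    have h2 := H5.relIndex_sup_zpowers Nat.prime_two han haD ha2
    have h3 := relIndex_lt_of_degLt hH k h1 ((h a ha).congr fun x _ => by
      have e1 : x ∈ D → x ∈ D ⊔ zpowers a := fun h => mem_sup_left h
      have e2 : x * a ∈ D → x ∈ D ⊔ zpowers a := fun h =>
        (Subgroup.mul_mem_cancel_right _ (mem_sup_right (mem_zpowers a))).mp (mem_sup_left h)
      have e3 : x ∈ D → x * a ∈ D → False := fun h h' => haD ((D.mul_mem_cancel_left h).mp h')
      have e4 : x ∈ D ⊔ zpowers a → x ∈ D ∨ x * a ∈ D := by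
        intro h
        obtain ⟨d, hd, i, rfl⟩ := (H5.mem_sup_zpowers_iff_nat han).mp h
        obtain ⟨j, rfl | rfl⟩ := Nat.even_or_odd' i
        · exact Or.inl (D.mul_mem hd (pow_mul a 2 j ▸ D.pow_mem ha2 j))
        · refine Or.inr ?_
          rw [mul_assoc, ← pow_succ, show 2 * j + 1 + 1 = 2 * (j + 1) by ring, pow_mul]
          exact D.mul_mem hd (D.pow_mem ha2 _)
      simp only [indF]
      by_cases c1 : x ∈ D <;> by_cases c2 : x * a ∈ D
      · exact (e3 c1 c2).elim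
      · simp [c1, c2, e1 c1]
      · simp [c1, c2, e2 c2]
      · simp [c1, c2, show x ∉ D ⊔ zpowers a from fun h => (e4 h).elim c1 c2])
    rw [← relIndex_mul_relIndex D _ H le_sup_left h1, h2, pow_succ]
    omega

theorem indF_mul {M A : Subgroup G} (h : M.relIndex A = 2) {x y : G} (hx : x ∈ A) (hy : y ∈ A) :
    indF M (x * y) = indF M x + indF M y + 1 := by
  have := mul_mem_iff_of_index_two h (a := ⟨x, hx⟩) (b := ⟨y, hy⟩)
  replace this : x * y ∈ M ↔ (x ∈ M ↔ y ∈ M) := this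
  simp only [indF]
  by_cases c1 : x ∈ M <;> by_cases c2 : y ∈ M <;> simp [this, c1, c2] <;> decide

theorem degLt_indF_sq (hc : ∀ x y : G, ⁅x, y⁆ ∈ center G) {H M A : Subgroup G}
    (h : M.relIndex A = 2) (hs : ∀ x ∈ H, x ^ 2 ∈ A) :
    DegLt H 3 fun x => indF M (x ^ 2) := by
  have e1 : ∀ x a : G, (x * a) ^ 2 = ⁅a, x⁆ * (x ^ 2 * a ^ 2) := fun x a => by
    rw [sq x, mul_assoc x, ← mul_assoc _ x, ← mem_center_iff.mp (hc a x) x, commutatorElement_def]
    simp only [sq]; group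
  have e2 : ∀ x b a : G, ⁅a, x * b⁆ = ⁅a, x⁆ * ⁅a, b⁆ := fun x b a => by
    rw [show ⁅a, x * b⁆ = ⁅a, x⁆ * (x * ⁅a, b⁆) * x⁻¹ by simp only [commutatorElement_def]; group,
      mem_center_iff.mp (hc a b) x]
    group
  have hcA : ∀ a ∈ H, ∀ x ∈ H, ⁅a, x⁆ ∈ A := fun a ha x hx =>
    (A.mul_mem_cancel_right (A.mul_mem (hs x hx) (hs a ha))).mp (e1 x a ▸ hs _ (H.mul_mem hx ha))
  intro a ha
  refine DegLt.congr (f := fun x => indF M ⁅a, x⁆ + indF M (a ^ 2)) ?_ fun x hx => ?_
  · intro b hb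
    refine DegLt.congr (f := fun _ => indF M ⁅a, b⁆ + 1) ?_ fun x hx => ?_
    · exact fun _ _ _ _ => CharTwo.add_self_eq_zero _
    · simp only [e2]
      rw [indF_mul h (hcA a ha x hx) (hcA a ha b hb)]
      have h1 := CharTwo.add_self_eq_zero (indF M ⁅a, x⁆)
      have h2 := CharTwo.add_self_eq_zero (indF M (a ^ 2))
      linear_combination -h1 - h2
  · simp only [e1]
    rw [indF_mul h (hcA a ha x hx) (A.mul_mem (hs x hx) (hs a ha)), indF_mul h (hs x hx) (hs a ha)]
    have h1 := CharTwo.add_self_eq_zero (indF M (x ^ 2))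
    have h2 := CharTwo.add_self_eq_zero (1 : ZMod 2)
    linear_combination -h1 - h2

theorem exists_hyperplane [Finite G] {p : ℕ} [Fact p.Prime] {A E : Subgroup G}
    (hc : ⁅A, A⁆ ≤ E) (hp : ∀ x ∈ A, x ^ p ∈ E) (hE : E ≤ A) {g : G} (hg : g ∈ A) (hgE : g ∉ E) :
    ∃ M : Subgroup G, E ≤ M ∧ M ≤ A ∧ M.relIndex A = p ∧ g ∉ M := by
  obtain ⟨M, h1, h2, h3⟩ := H5.exists_index_eq_not_mem (p := p) (N := E.subgroupOf A) (g := ⟨g, hg⟩)
    (commutator_le.mpr fun x _ y _ => hc (commutator_mem_commutator x.2 y.2))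
    (fun x => hp x x.2) hgE
  refine ⟨M.map A.subtype, ?_, map_subtype_le _, ?_, ?_⟩
  · rw [← map_subgroupOf_eq_of_le hE]; exact map_mono h1
  · rw [relIndex, subgroupOf, comap_map_eq_self_of_injective A.subtype_injective]; exact h2
  · rintro ⟨y, hy, e⟩
    exact h3 ((Subtype.ext e : y = ⟨g, hg⟩) ▸ hy)

theorem relIndex_le_sq [Finite G] (hc : ∀ x y : G, ⁅x, y⁆ ∈ center G) {H D E A : Subgroup G}
    (hH : IsPGroup 2 H) (hD : D ≤ H) (hE : E ≤ A) (hA : ⁅A, A⁆ ≤ E) (hA2 : ∀ x ∈ A, x ^ 2 ∈ E)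
    (hs : ∀ x ∈ H, x ^ 2 ∈ A) (h : ∀ x ∈ H, x ^ 2 ∈ E ↔ x ∈ D) :
    D.relIndex H ≤ E.relIndex A ^ 2 := by
  have key : ∀ F : Subgroup G, E ≤ F → F ≤ A → ∀ m, F.relIndex A = 2 ^ m →
      DegLt H (2 * m + 1) (fun x => indF F (x ^ 2)) →
      ∃ m, E.relIndex A = 2 ^ m ∧ DegLt H (2 * m + 1) (fun x => indF E (x ^ 2)) := by
    intro F
    induction F using WellFoundedLT.induction with
    | ind F ih =>
      intro hEF hFA m hm hdeg
      rcases hEF.eq_or_lt with rfl | hlt
      · exact ⟨m, hm, hdeg⟩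
      obtain ⟨g, hg, hgE⟩ := SetLike.exists_of_lt hlt
      obtain ⟨M, h1, -, h3, h4⟩ := exists_hyperplane hA hA2 hE (hFA hg) hgE
      have h5 : F ⊓ M < F := inf_lt_left.mpr fun h => h4 (h hg)
      have h6 : (F ⊓ M).relIndex F = 2 := by
        have h7 := relIndex_le_of_le_right (H := M) hFA (by rw [h3]; decide)
        have h8 : (F ⊓ M).relIndex F ≠ 1 := fun h => h5.not_ge (relIndex_eq_one.mp h)
        have h9 : (F ⊓ M).relIndex F ≠ 0 := index_ne_zero_of_finite
        rw [inf_relIndex_left] at *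
        omega
      refine ih _ h5 (le_inf hEF h1) (inf_le_left.trans hFA) (m + 1) ?_ ?_
      · rw [← relIndex_mul_relIndex _ F A inf_le_left hFA, h6, hm, pow_succ, mul_comm]
      · refine (DegLt.mul _ hdeg (degLt_indF_sq hc h3 hs) (by omega)).congr fun x _ => ?_
        simp only [indF, mem_inf]
        by_cases c1 : x ^ 2 ∈ F <;> by_cases c2 : x ^ 2 ∈ M <;> simp [c1, c2]
  obtain ⟨m, h1, h2⟩ := key A hE le_rfl 0 (by simp) fun a ha x hx => by
    simp only [indF, hs x hx, hs _ (H.mul_mem hx ha), if_true]; decide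
  have h3 := relIndex_lt_of_degLt hH _ hD (h2.congr fun x hx => by
    classical simp only [indF]; exact if_congr (h x hx) rfl rfl)
  obtain ⟨k, hk⟩ := hH.index (D.subgroupOf H)
  rw [relIndex, hk] at h3
  rw [h1, ← pow_mul, relIndex, hk]
  exact Nat.pow_le_pow_right two_pos
    (by have := (Nat.pow_lt_pow_iff_right one_lt_two).mp h3; omega)

end H77
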